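import Cfsg.Agent.H3.Ch.Base

/-! Doubly transitive groups with an imprimitive point stabiliser: orders and invariant sets. -/

set_option autoImplicit false
set_option linter.unusedVariables false
set_option linter.unusedSectionVars false

namespace Cfsg.Agent.H6.Ch

open Subgroup MulAction H3.Ch Pointwise Finset

/-- a set of size `s` kept by the stabiliser of `k` points -/
def Sep (J Ω : Type) [Group J] [MulAction J Ω] (k s : ℕ) : Prop :=
  ∃ (T : Fin k → Ω) (Δ : Set Ω), Δ.ncard = s ∧ ∀ g : J, (∀ i, g • T i = T i) → g • Δ = Δ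

/-- the blocks of all point stabilisers -/
structure Tri (J : Type) {Ω : Type} [Group J] [MulAction J Ω] (a : ℕ) (C : Ω → Ω → Finset Ω) : Prop where
  rf : ∀ γ u, u ∈ C γ u
  eq : ∀ {γ u v}, v ∈ C γ u → C γ v = C γ u
  inv : ∀ (g : J) {γ u v}, v ∈ C γ u → g • v ∈ C (g • γ) (g • u)
  pt : ∀ {γ v}, v ∈ C γ γ → v = γ
  sz : ∀ {γ u}, u ≠ γ → (C γ u).card = a

variable {J Ω : Type} [Group J] [Finite J] [MulAction J Ω] [Fintype Ω] [DecidableEq Ω] {a b m μ : ℕ}
  {C : Ω → Ω → Finset Ω} {α γ u v z : Ω} {S A : Finset Ω}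

theorem ex_tri (h2 : IsMultiplyPretransitive J Ω 2) (hm : Fintype.card Ω = m + 1) (α : Ω)
    (np : ¬ IsPreprimitive (stabilizer J α) (SubMulAction.ofStabilizer J α)) :
    ∃ (a : ℕ) (C : Ω → Ω → Finset Ω), 2 ≤ a ∧ a < m ∧ Tri J a C := by
  classical
  have : IsPretransitive J Ω := isPretransitive_of_is_two_pretransitive
  have := (is_one_pretransitive_iff).1 (SubMulAction.ofStabilizer.isMultiplyPretransitive (a := α) (n := 1).1 h2)
  obtain ⟨B, hB, hT⟩ : ∃ B : Set (SubMulAction.ofStabilizer J α), IsBlock (stabilizer J α) B ∧ ¬ IsTrivialBlock B := by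
    by_contra! c
    exact np ⟨fun h => c _ h⟩
  rw [IsTrivialBlock, not_or, Set.not_subsingleton_iff, ← Ne, Set.ne_univ_iff_exists_notMem] at hT
  obtain ⟨⟨x, hx, y, hy, hxy⟩, z, hz⟩ := hT
  let D : Finset Ω := univ.filter fun w => ∃ h : w ≠ α, ⟨w, h⟩ ∈ B
  have bl : ∀ g : J, g • α = α → ∀ u ∈ D, g • u ∈ D → ∀ v ∈ D, g • v ∈ D := fun g hg u hu hu' v hv => by
    simp only [D, mem_filter, mem_univ, true_and] at *
    obtain ⟨h1, h2⟩ := hu
    obtain ⟨h3, h4⟩ := hu'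
    obtain ⟨h5, h6⟩ := hv
    have := (hB.smul_eq_of_mem (g := ⟨g, hg⟩) h2 h4).le (Set.smul_mem_smul_set h6)
    exact ⟨_, this⟩
  have a0 : α ∉ D := by simp [D]
  have xD : x.1 ∈ D := by simpa [D] using ⟨x.2, hx⟩
  let C : Ω → Ω → Finset Ω := fun γ u => univ.filter fun v => v = u ∨ ∃ g : J, g • γ = α ∧ g • u ∈ D ∧ g • v ∈ D
  have mC : ∀ {γ u v}, v ∈ C γ u ↔ v = u ∨ ∃ g : J, g • γ = α ∧ g • u ∈ D ∧ g • v ∈ D := by simp [C]
  have key : ∀ {γ u v} (g : J), g • γ = α → g • u ∈ D → (v ∈ C γ u ↔ g • v ∈ D) := fun g h1 h2 =>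
    mC.trans ⟨by
      rintro (rfl | ⟨k, k1, k2, k3⟩)
      · exact h2
      · simpa [mul_smul] using bl (g * k⁻¹) (by rw [mul_smul, inv_smul_eq_iff.2 k1.symm, h1]) _ k2
          (by simpa [mul_smul]) _ k3,
      fun h => Or.inr ⟨g, h1, h2, h⟩⟩
  refine ⟨D.card, C, one_lt_card.2 ⟨_, xD, y.1, by simpa [D] using ⟨y.2, hy⟩, fun e => hxy (Subtype.ext e)⟩, ?_,
    fun γ u => mC.2 (Or.inl rfl), fun h => ?_, fun g _ _ _ h => mC.2 ?_, fun h => ?_, fun {γ u} h => ?_⟩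
  · have : D ⊂ univ.erase α := ⟨fun w hw => by simpa using ne_of_mem_of_not_mem hw a0,
      fun e => hz (mem_filter.1 (e (mem_erase.2 ⟨z.2, mem_univ _⟩))).2.2⟩
    simpa [hm] using card_lt_card this
  · rcases mC.1 h with rfl | ⟨k, k1, k2, k3⟩
    · rfl
    · ext w; rw [key k k1 k2, key k k1 k3]
  · rcases mC.1 h with rfl | ⟨k, k1, k2, k3⟩
    · exact Or.inl rfl
    · exact Or.inr ⟨k * g⁻¹, by simpa [mul_smul], by simpa [mul_smul], by simpa [mul_smul]⟩
  · exact (mC.1 h).resolve_right fun ⟨k, k1, k2, _⟩ => a0 (k1 ▸ k2)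
  · obtain ⟨g, g1, g2⟩ := is_two_pretransitive_iff.1 h2 h.symm (Ne.symm x.2)
    exact card_bijective _ (MulAction.bijective g) fun v => key g g1 (g2 ▸ xD)

namespace Tri
variable (h : Tri J a C)
include h

theorem ne (hu : u ≠ γ) (hv : v ∈ C γ u) : v ≠ γ := by
  rintro rfl
  exact hu (h.pt (h.eq hv ▸ h.rf _ u))

theorem un (hS : γ ∉ S) : (S.biUnion (C γ)).card = a * (S.image (C γ)).card := by
  rw [card_eq_sum_card_fiberwise (f := C γ) (t := S.image (C γ)) fun w hw => by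
    obtain ⟨u, hu, hw⟩ := mem_biUnion.1 hw
    exact mem_image.2 ⟨u, hu, (h.eq hw).symm⟩, mul_comm, ← smul_eq_mul, ← sum_const]
  refine sum_congr rfl fun D hD => ?_
  obtain ⟨u, hu, rfl⟩ := mem_image.1 hD
  rw [← h.sz (ne_of_mem_of_not_mem hu hS)]
  congr 1
  ext w
  rw [mem_filter, mem_biUnion]
  exact ⟨fun e => e.2 ▸ h.rf γ w, fun e => ⟨⟨u, hu, e⟩, h.eq e⟩⟩

theorem tot (hm : Fintype.card Ω = m + 1) (γ : Ω) : a * ((univ.erase γ).image (C γ)).card = m := by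
  rw [← h.un (notMem_erase γ _), show (univ.erase γ).biUnion (C γ) = univ.erase γ from ?_]
  · simp [hm]
  · ext w
    simp only [mem_biUnion, mem_erase, mem_univ, and_true]
    exact ⟨fun ⟨u, hu, e⟩ => h.ne hu e, fun e => ⟨w, e, h.rf γ w⟩⟩

theorem sep {k : ℕ} (T : Fin k → Ω) (hS : γ ∉ S) (e : ∀ g : J, (∀ i, g • T i = T i) → ∀ u ∈ S, g • u ∈ S) :
    Sep J Ω (k + 1) (a * (S.image (C γ)).card) := by
  refine ⟨Fin.cons γ T, S.biUnion (C γ), by rw [Set.ncard_coe_finset, h.un hS], fun g hg =>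
    Set.eq_of_subset_of_ncard_le ?_ (Set.ncard_smul_set g _).ge⟩
  rintro _ ⟨w, hw, rfl⟩
  obtain ⟨u, hu, hw⟩ := mem_biUnion.1 hw
  have := h.inv g hw
  rw [show g • γ = γ from hg 0] at this
  exact mem_biUnion.2 ⟨_, e g (fun i => hg i.succ) u hu, this⟩

theorem b2 (γ : Ω) {j : ℕ} (hj : j ≤ ((univ.erase γ).image (C γ)).card) : Sep J Ω (j + 1) (j * a) := by
  obtain ⟨t, ht, rfl⟩ := exists_subset_card_eq hj
  choose f f1 f2 using fun i : Fin t.card => mem_image.1 (ht (t.equivFin.symm i).2)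
  have := h.sep (γ := γ) (S := univ.image f) f (by simpa using fun i e => by simpa [e] using f1 i)
    fun g hg u hu => by obtain ⟨i, -, rfl⟩ := mem_image.1 hu; rwa [hg]
  rwa [show (univ.image f).image (C γ) = t from ?_, mul_comm] at this
  ext D
  simp only [mem_image, mem_univ, true_and, exists_exists_eq_and, f2]
  exact ⟨fun ⟨i, e⟩ => e ▸ (t.equivFin.symm i).2, fun e => ⟨t.equivFin ⟨D, e⟩, by simp⟩⟩

theorem lam (h2 : IsMultiplyPretransitive J Ω 2) (uv : v ≠ u) : #{γ | v ∈ C γ u} = a - 1 := by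
  have e : ∀ w ∈ univ.erase u, #{γ | w ∈ C γ u} = #{γ | v ∈ C γ u} := fun w hw => by
    obtain ⟨g, g1, g2⟩ := is_two_pretransitive_iff.1 h2 (ne_of_mem_erase hw) uv
    refine card_bijective _ (MulAction.bijective g) fun γ => ?_
    simp only [mem_filter, mem_univ, true_and]
    exact ⟨fun k => by simpa [g1, g2] using h.inv g k, fun k => by
      simpa [inv_smul_eq_iff.2 g1.symm, inv_smul_eq_iff.2 g2.symm] using h.inv g⁻¹ k⟩
  have e2 := sum_card_bipartiteAbove_eq_sum_card_bipartiteBelow (s := univ.erase u) (t := univ)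
    fun w γ => w ∈ C γ u
  simp only [bipartiteAbove, bipartiteBelow] at e2
  rw [sum_congr rfl e, sum_const, ← add_sum_erase _ _ (mem_univ u), card_eq_zero.2 (filter_eq_empty_iff.2 fun w hw k =>
    ne_of_mem_erase hw (h.pt k)), zero_add, sum_congr rfl (g := fun _ => a - 1) fun γ hγ => by
      rw [← h.sz (ne_of_mem_erase hγ).symm, ← card_erase_of_mem (h.rf γ u)]
      congr 1; ext w; simp, sum_const] at e2
  exact Nat.eq_of_mul_eq_mul_left (card_pos.2 ⟨v, by simpa⟩) e2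

theorem b3 (h2 : IsMultiplyPretransitive J Ω 2) (a2 : 2 ≤ a) [Nonempty Ω] {k s : ℕ} (hs : Sep J Ω k s)
    (le : 2 * a * s ≤ Fintype.card Ω) : ∃ s', Sep J Ω (k + 1) s' ∧ a ∣ s' ∧ s' ≤ a * s ∧
      s * a * (2 * a - 1) ≤ s' * (3 * a - 2) := by
  obtain ⟨T, Δ, rfl, hT⟩ := hs
  lift Δ to Finset Ω using Δ.toFinite
  rw [Set.ncard_coe_finset] at le ⊢
  have n0 : 0 < Fintype.card Ω := Fintype.card_pos
  have cc := card_add_card_compl Δ
  have e1 : ∑ γ ∈ Δᶜ, ∑ u ∈ Δ, #{v ∈ Δ | v ∈ C γ u} ≤ Δ.card * (Δᶜ.card + (Δ.card - 1) * (a - 1)) := by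
    rw [sum_comm, ← smul_eq_mul]
    refine sum_le_card_nsmul _ _ _ fun u hu => ?_
    have e2 := sum_card_bipartiteAbove_eq_sum_card_bipartiteBelow (s := Δᶜ) (t := Δ) fun γ w => w ∈ C γ u
    simp only [bipartiteAbove, bipartiteBelow] at e2
    rw [e2, ← add_sum_erase _ _ hu, ← card_erase_of_mem hu, ← smul_eq_mul]
    exact add_le_add (card_filter_le _ _) (sum_le_card_nsmul _ _ _ fun v hv =>
      (card_le_card (filter_subset_filter _ (subset_univ _))).trans (h.lam h2 (ne_of_mem_erase hv)).le)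
  obtain ⟨c, rfl⟩ : ∃ c, a = c + 1 := ⟨a - 1, by omega⟩
  obtain ⟨γ, hγ, e3⟩ : ∃ γ ∈ Δᶜ, (∑ u ∈ Δ, #{v ∈ Δ | v ∈ C γ u}) * (2 * c + 1) ≤ Δ.card * (3 * c + 1) := by
    refine exists_le_of_sum_le (card_pos.1 (by nlinarith)) ?_
    rw [← sum_mul, sum_const, smul_eq_mul]
    refine (Nat.mul_le_mul_right _ e1).trans ?_
    have : (Δ.card - 1) * (2 * c + 1) ≤ Δᶜ.card :=
      (Nat.mul_le_mul_right _ (Nat.sub_le _ _)).trans (by nlinarith)
    rw [Nat.add_sub_cancel]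
    nlinarith [Nat.mul_le_mul_left (Δ.card * c) this]
  refine ⟨_, h.sep T (mem_compl.1 hγ) fun g hg u hu => (hT g hg).le (Set.smul_mem_smul_set hu),
    dvd_mul_right _ _, Nat.mul_le_mul_left _ card_image_le, ?_⟩
  have e4 := sq_sum_le_card_mul_sum_sq (s := Δ.image (C γ)) (f := fun D => #{v ∈ Δ | C γ v = D})
  rw [← card_eq_sum_card_image] at e4
  have e5 : ∑ u ∈ Δ, #{v ∈ Δ | v ∈ C γ u} = ∑ D ∈ Δ.image (C γ), #{v ∈ Δ | C γ v = D} ^ 2 := by
    rw [← sum_fiberwise_of_maps_to (g := C γ) fun x hx => mem_image_of_mem _ hx]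
    refine sum_congr rfl fun D _ => ?_
    rw [sq, ← smul_eq_mul, ← sum_const]
    refine sum_congr rfl fun u hu => congrArg card (filter_congr fun v _ => ?_)
    rw [← (mem_filter.1 hu).2]
    exact ⟨h.eq, fun e => e ▸ h.rf γ v⟩
  rw [← e5] at e4
  rw [show 2 * (c + 1) - 1 = 2 * c + 1 by omega, show 3 * (c + 1) - 2 = 3 * c + 1 by omega]
  rcases Δ.card.eq_zero_or_pos with e | e
  · simp [e]
  have : Δ.card * (2 * c + 1) ≤ (Δ.image (C γ)).card * (3 * c + 1) := Nat.le_of_mul_le_mul_left (by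
    nlinarith [Nat.mul_le_mul_left (Δ.image (C γ)).card e3, Nat.mul_le_mul_right (2 * c + 1) e4]) e
  nlinarith [Nat.mul_le_mul_left (c + 1) this]

end Tri

theorem stp (z : Ω) (W : Finset Ω) (e : ∀ g ∈ fixingSubgroup J (A : Set Ω), g • z ∈ W) :
    Nat.card (fixingSubgroup J (A : Set Ω)) ≤ W.card * Nat.card (fixingSubgroup J ((insert z A : Finset Ω) : Set Ω)) := by
  set K := fixingSubgroup J (A : Set Ω)
  rw [← (stabilizer K z).index_mul_card, index_stabilizer, ← Set.ncard_coe_finset]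
  refine Nat.mul_le_mul (Set.ncard_le_ncard (by rintro _ ⟨g, rfl⟩; exact e g g.2)) (Nat.card_le_card_of_injective
    (fun g => ⟨g.1.1, (mem_fixingSubgroup_iff _).2 fun y hy => ?_⟩) fun g g' e => Subtype.ext (Subtype.ext (by simpa using e)))
  rcases mem_insert.1 hy with rfl | hy
  exacts [g.2, (mem_fixingSubgroup_iff _).1 g.1.2 y hy]

theorem nmv {g : J} (hg : g ∈ fixingSubgroup J (A : Set Ω)) (hz : z ∉ A) : g • z ∉ A := fun e =>
  hz (MulAction.injective g ((mem_fixingSubgroup_iff _).1 hg _ e) ▸ e)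

namespace Tri
variable (h : Tri J a C)
include h

theorem inn (c i : ℕ) : ∀ A : Finset Ω, α ∈ A → u ∈ A → (C α u \ A).card = c + i → ∃ A', A ⊆ A' ∧ A' ⊆ A ∪ C α u ∧
    (C α u \ A').card = c ∧ A'.card = A.card + i ∧ Nat.card (fixingSubgroup J (A : Set Ω)) * c.factorial ≤
      (c + i).factorial * Nat.card (fixingSubgroup J (A' : Set Ω)) := by
  induction i with
  | zero => exact fun A _ _ e => ⟨A, le_rfl, subset_union_left, e, rfl, (mul_comm _ _).le⟩
  | succ i ih =>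
    intro A h1 h2 e
    obtain ⟨z, hz⟩ := card_pos.1 (show 0 < (C α u \ A).card by omega)
    have z1 := mem_sdiff.1 hz
    obtain ⟨A', k1, k2, k3, k4, k5⟩ := ih (insert z A) (mem_insert_of_mem h1) (mem_insert_of_mem h2) (by
      rw [sdiff_insert, card_erase_of_mem hz, e]; rfl)
    have := stp (J := J) (A := A) z (C α u \ A) fun g hg => mem_sdiff.2 ⟨by
      simpa [(mem_fixingSubgroup_iff _).1 hg _ h1, (mem_fixingSubgroup_iff _).1 hg _ h2] using h.inv g z1.1,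
      nmv hg z1.2⟩
    refine ⟨A', (subset_insert _ _).trans k1, k2.trans (union_subset (insert_subset (mem_union_right _ z1.1)
      subset_union_left) subset_union_right), k3, by rw [k4, card_insert_of_notMem z1.2]; omega, ?_⟩
    rw [← add_assoc, Nat.factorial_succ, mul_assoc]
    rw [e] at this
    nlinarith [Nat.mul_le_mul_right c.factorial this, Nat.mul_le_mul_left (c + i + 1) k5]

theorem one {c e : ℕ} (hc : c < a) (h1 : α ∈ A) (cl : ∀ u ∈ A, C α u ⊆ A) (he : Aᶜ.card = (e + 1) * a) :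
    ∃ A' : Finset Ω, α ∈ A' ∧ A'ᶜ.card = e * a + c ∧ (c = 0 → ∀ u ∈ A', C α u ⊆ A') ∧
      Nat.card (fixingSubgroup J (A : Set Ω)) * c.factorial ≤
        (e + 1) * a.factorial * Nat.card (fixingSubgroup J (A' : Set Ω)) := by
  obtain ⟨u, hu⟩ := card_pos.1 (show 0 < Aᶜ.card by rw [he]; exact Nat.mul_pos e.succ_pos (by omega))
  have u0 := mem_compl.1 hu
  obtain ⟨i, rfl⟩ := Nat.exists_eq_add_of_lt hc
  obtain ⟨A', k1, k2, k3, k4, k5⟩ := h.inn c i (insert u A) (mem_insert_of_mem h1) (mem_insert_self u A) (by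
    rw [sdiff_insert, sdiff_eq_self_of_disjoint (disjoint_left.2 fun v hv e => u0 (cl v e (h.eq hv ▸ h.rf α u))),
      card_erase_of_mem (h.rf α u), h.sz (ne_of_mem_of_not_mem h1 u0).symm]; rfl)
  have := stp (J := J) (A := A) u Aᶜ fun g hg => mem_compl.2 (nmv hg u0)
  have c1 := card_add_card_compl A
  have c2 := card_add_card_compl A'
  rw [card_insert_of_notMem u0] at k4
  refine ⟨A', k1 (mem_insert_of_mem h1), by nlinarith, fun c0 v hv => ?_, ?_⟩
  · have s : C α u ⊆ A' := sdiff_eq_empty_iff_subset.1 (card_eq_zero.1 (k3.trans c0))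
    rcases mem_union.1 (k2 hv) with k | k
    · rcases mem_insert.1 k with rfl | k
      exacts [s, (cl v k).trans ((subset_insert _ _).trans k1)]
    · rwa [h.eq k]
  · rw [Nat.factorial_succ]
    rw [he] at this
    nlinarith [Nat.mul_le_mul_right c.factorial this, Nat.mul_le_mul_left ((e + 1) * (c + i + 1)) k5]

theorem out (a0 : 0 < a) (e j : ℕ) : ∀ A : Finset Ω, α ∈ A → (∀ u ∈ A, C α u ⊆ A) → Aᶜ.card = (e + j) * a →
    ∃ A' : Finset Ω, α ∈ A' ∧ (∀ u ∈ A', C α u ⊆ A') ∧ A'ᶜ.card = e * a ∧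
      Nat.card (fixingSubgroup J (A : Set Ω)) * e.factorial ≤
        a.factorial ^ j * (e + j).factorial * Nat.card (fixingSubgroup J (A' : Set Ω)) := by
  induction j with
  | zero => exact fun A h1 h2 h3 => ⟨A, h1, h2, h3, by simp [mul_comm]⟩
  | succ j ih =>
    intro A h1 h2 h3
    obtain ⟨A1, k1, k2, k3, k4⟩ := h.one a0 h1 h2 (e := e + j) h3
    obtain ⟨A', l1, l2, l3, l4⟩ := ih A1 k1 (k3 rfl) k2
    refine ⟨A', l1, l2, l3, ?_⟩
    rw [← add_assoc, Nat.factorial_succ, pow_succ]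
    rw [Nat.factorial_zero, mul_one] at k4
    nlinarith [Nat.mul_le_mul_right e.factorial k4, Nat.mul_le_mul_left ((e + j + 1) * a.factorial) l4]

theorem b1 (hm : Fintype.card Ω = a * b + 1) (md : MD J Ω μ) {e c : ℕ} (he : e < b) (hc : c < a)
    (lt : e * a + c < μ) : Nat.card (stabilizer J α) * (e.factorial * c.factorial) ≤
      a.factorial ^ (b - e) * b.factorial := by
  obtain ⟨j, rfl⟩ := Nat.exists_eq_add_of_lt he
  obtain ⟨A, k1, k2, k3, k4⟩ := h.out (α := α) (by omega) (e + 1) j {α} (mem_singleton_self α)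
    (fun u hu v hv => mem_singleton.2 (h.pt (mem_singleton.1 hu ▸ hv))) (by
      rw [card_compl, hm, card_singleton, Nat.add_sub_cancel]; ring)
  obtain ⟨A', -, l2, -, l4⟩ := h.one hc k1 k2 k3
  have : fixingSubgroup J (A' : Set Ω) = ⊥ := eq_bot_iff.2 fun g hg => by_contra fun g1 =>
    (md g g1).not_gt (lt_of_le_of_lt (by
      rw [← l2, ← Set.ncard_coe_finset]
      exact Set.ncard_le_ncard fun w hw => mem_compl.2 fun k => hw ((mem_fixingSubgroup_iff _).1 hg _ k)) lt)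
  rw [this, card_bot, mul_one] at l4
  rw [show stabilizer J α = fixingSubgroup J (({α} : Finset Ω) : Set Ω) by ext; simp [mem_fixingSubgroup_iff],
    show e + j + 1 - e = j + 1 by omega, show e + j + 1 = e + 1 + j by omega, pow_succ]
  rw [Nat.factorial_succ] at k4
  refine Nat.le_of_mul_le_mul_left ?_ e.succ_pos
  nlinarith [Nat.mul_le_mul_right c.factorial k4,
    Nat.mul_le_mul_left (a.factorial ^ j * (e + 1 + j).factorial) l4]

end Tri

theorem blk {J Ω : Type} [Group J] [Finite J] [MulAction J Ω] [Finite Ω] {m : ℕ}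
    (h2 : IsMultiplyPretransitive J Ω 2) (hm : Nat.card Ω = m + 1) (α : Ω)
    (np : ¬ IsPreprimitive (stabilizer J α) (SubMulAction.ofStabilizer J α)) :
    ∃ a b, 2 ≤ a ∧ 2 ≤ b ∧ a * b = m ∧
      (a = 2 → ∃ β γ : Ω, α ≠ β ∧ α ≠ γ ∧ β ≠ γ ∧ ∀ g : J, g • α = α → g • β = β → g • γ = γ) ∧
      (∀ μ e c, MD J Ω μ → e < b → c < a → e * a + c < μ →
        Nat.card (stabilizer J α) * (e.factorial * c.factorial) ≤ a.factorial ^ (b - e) * b.factorial) ∧
      (∀ j ≤ b, Sep J Ω (j + 1) (j * a)) ∧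
      ∀ k s, Sep J Ω k s → 2 * a * s ≤ m + 1 → ∃ s', Sep J Ω (k + 1) s' ∧ a ∣ s' ∧ s' ≤ a * s ∧
        s * a * (2 * a - 1) ≤ s' * (3 * a - 2) := by
  classical
  have := Fintype.ofFinite Ω
  have : Nonempty Ω := ⟨α⟩
  rw [Nat.card_eq_fintype_card] at hm
  obtain ⟨a, C, a2, am, h⟩ := ex_tri h2 hm α np
  have t := h.tot hm α
  refine ⟨a, _, a2, by by_contra! k; nlinarith, t, fun e => ?_, fun μ e c md => h.b1 (by rw [t, hm]) md,
    fun j => h.b2 α, fun k s hs le => h.b3 h2 a2 hs (hm ▸ le)⟩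
  obtain ⟨β, hβ⟩ := Fintype.exists_ne_of_one_lt_card (by omega) α
  obtain ⟨γ, hγ⟩ := card_eq_one.1 (show ((C α β).erase β).card = 1 by rw [card_erase_of_mem (h.rf α β), h.sz hβ, e])
  have k := mem_erase.1 (hγ.ge (mem_singleton_self γ))
  refine ⟨β, γ, hβ.symm, (h.ne hβ k.2).symm, k.1.symm, fun g g1 g2 => mem_singleton.1 (hγ.le (mem_erase.2
    ⟨fun e => k.1 (MulAction.injective g (e.trans g2.symm)), by simpa [g1, g2] using h.inv g k.2⟩))⟩

end Cfsg.Agent.H6.Ch
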