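import Cfsg.Agent.H6.Ch.TU
import Cfsg.Agent.H9.Ch.B
import Cfsg.Agent.H9.Ch.NI1

/-! Orders of primitive groups: the arithmetic of the simply primitive case. -/

set_option autoImplicit false

namespace Cfsg.Agent.H6.Ch

open Cfsg.Agent.H3.Ch Cfsg.Agent.H9.Ch Cfsg.Agent.H2.NU

/-- the least size of a distinguishing set -/
def dmc (m : ℕ) : ℕ := srch (fun k => decide (k * (3 * k - 2) < 4 * (m - 1)) && decide (4 * k < m)) 40 0

theorem dmc_spec (m : ℕ) : Dm m (dmc m) := fun k hk => by
  by_contra! c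
  have := (srch_spec _ 40 0).2 k (Nat.zero_le _) c
  simp only [Bool.and_eq_true, decide_eq_true_eq] at this
  omega

/-- the minimal degree -/
def muu (n t : ℕ) : ℕ :=
  if 3 ≤ t then max (2 * t - 2) (srch (fun k => decide (3 * (1 + (k - 1) * (k - 2) / (n - 2)) < k)) 100 4) else 4

theorem muu_spec (n t : ℕ) : Mu n t (muu n t) := by
  have h2 := srch_spec (fun k => decide (3 * (1 + (k - 1) * (k - 2) / (n - 2)) < k)) 100 4
  simp only [decide_eq_true_eq] at h2
  unfold muu
  split_ifs with h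
  · exact max_rec' (Mu n t) (Or.inr ⟨h, Or.inl le_rfl⟩) (Or.inr ⟨h, Or.inr h2.2⟩)
  · exact Or.inl le_rfl

/-- one factor of the Sylow bound -/
def syf (m d μ p : ℕ) : ℕ := if mp p then p ^ (leg p 10 (m / p) + if p = m then 1 else
    min (m / max (2 * p) ((d + p - 1) / p * p))
      ((m + max (2 * p) ((d + p - 1) / p * p) - (μ + p - 1) / p * p) / max (2 * p) ((d + p - 1) / p * p))) else 1

/-- the Sylow bound -/
def syc (m d μ : ℕ) : ℕ → ℕ
  | 0 => 1
  | k + 1 => syc m d μ k * syf m d μ k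

theorem syc_eq (m d μ k : ℕ) : syc m d μ k = ∏ p ∈ Finset.range k, syf m d μ p := by
  induction k with
  | zero => rfl
  | succ k ih => rw [syc, ih, Finset.prod_range_succ]

theorem Sy_le {m : ℕ} (h : m < 131769) (d μ : ℕ) : Sy m d μ ≤ syc m d μ (m + 1) := by
  rw [syc_eq, Sy, Finset.prod_filter]
  refine Finset.prod_le_prod' fun p hp => ?_
  have := mp_iff (p := p) (by have := Finset.mem_range.1 hp; omega)
  unfold syf
  by_cases pp : p.Prime
  · rw [if_pos pp, if_pos (this.2 pp)]
    exact Nat.pow_le_pow_right pp.pos (Nat.add_le_add_right (le_leg pp _ _) _)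
  · rw [if_neg pp, if_neg fun e => pp (this.1 e)]

/-- the test -/
def ckU (n : ℕ) : Bool := decide (n < 8) || decide (540 < n) ||
  (List.range' 1 (min (fr n 40 3) (n - 3))).all fun t => force t fun t => force (n + 1 - t) fun m =>
    force (n.descFactorial (t - 1)) fun D => force (dmc m) fun d =>
      (force (16 * n - (Nat.log2 (D ^ 8) + 1)) fun E => decide (0 < d) && decide (D ^ 8 * 2 ^ E ≤ (4 ^ n) ^ 8) &&
        decide (m * Psi m * 8 ≤ 1000 * d * E)) || (decide (n = 37) && decide (t = 6)) ||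
      (decide (n = 55) && decide (t = 8)) || force (muu n t) fun μ => decide (D * syc m d μ (m + 1) ≤ 4 ^ n)

theorem ckU_a : allB ckU 8 0 = true := by decide +kernel

theorem ckU_b : allB ckU 8 1 = true := by decide +kernel

theorem ckU_c : allB ckU 8 2 = true := by decide +kernel

theorem ckU_all {n : ℕ} (h : n < 768) : ckU n = true := by
  rcases (by omega : n < 256 ∨ (256 ≤ n ∧ n < 512) ∨ 512 ≤ n) with k | k | k
  · exact allB_zero ckU_a n k
  · have := allB_spec ckU_b (n - 256) (by omega)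
    rwa [show 1 * 2 ^ 8 + (n - 256) = n by omega] at this
  · have := allB_spec ckU_c (n - 512) (by omega)
    rwa [show 2 * 2 ^ 8 + (n - 512) = n by omega] at this

theorem fin8 {D x n E : ℕ} (h : D ^ 8 * 2 ^ E ≤ (4 ^ n) ^ 8) (hx : 8 * Real.log x ≤ E * Real.log 2) :
    D * x ≤ 4 ^ n := by
  have h1 : x ^ 8 ≤ 2 ^ E := le_pow_of_log (by push_cast; rw [Real.log_pow]; exact_mod_cast hx)
  have h2 : (D * x) ^ 8 ≤ (4 ^ n) ^ 8 := by
    rw [mul_pow]
    exact (Nat.mul_le_mul_left _ h1).trans h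
  exact (Nat.pow_le_pow_iff_left (by norm_num)).1 h2

theorem lg (c : ℕ) : Real.log (2 ^ c) = c * Real.log 2 := Real.log_pow _ _

theorem numU : NumU := by
  intro n t m x h8 h1 ht hM hm hS hP hL
  by_cases hn : n ≤ 540
  swap
  · exact numU_big n t m x (by omega) hM hm hP
  have h := ckU_all (n := n) (by omega)
  simp only [ckU, force_eq, Bool.or_eq_true, Bool.and_eq_true, decide_eq_true_eq, List.all_eq_true,
    List.mem_range'_1] at h
  have h2 := fr_spec n 40 3 t (by omega) hM
  have h3 := (h.resolve_left (by omega)) t ⟨h1, by omega⟩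
  rw [show n + 1 - t = m by omega] at h3
  have l1 := Real.log_two_gt_d9
  have l2 := Real.log_two_lt_d9
  rcases h3 with ((⟨⟨d0, k1⟩, k2⟩ | ⟨rfl, rfl⟩) | ⟨rfl, rfl⟩) | k
  · refine fin8 k1 ?_
    have k3 := hP _ (dmc_spec m)
    have k4 := H9.Ch.psi_le (N := m) (by omega)
    generalize 16 * n - (Nat.log2 (n.descFactorial (t - 1) ^ 8) + 1) = E at *
    generalize dmc m = d at *
    have k5 : (m : ℝ) * Psi m * 8 ≤ 1000 * d * E := by exact_mod_cast k2
    have d1 : (0 : ℝ) < d := by exact_mod_cast d0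
    have k6 := mul_le_mul_of_nonneg_left k4 (Nat.cast_nonneg m : (0 : ℝ) ≤ m)
    have k7 := mul_le_mul_of_nonneg_left k5 (by linarith : 0 ≤ Real.log 2)
    refine le_of_mul_le_mul_left ?_ d1
    nlinarith
  · obtain rfl : m = 32 := by omega
    have k := hL 7 ([5, 5, 4, 4, 4, 3, 3, 3, 2, 2, 2, 2, 1, 1].map fun c : ℕ => (2 : ℝ) ^ c) (by norm_num)
      (dmc_spec 32) (fun y hy => by
        obtain ⟨c, -, rfl⟩ := List.mem_map.1 hy
        exact one_le_pow₀ (by norm_num))
    simp only [List.map, LN, lg] at k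
    refine fin8 (E := 386) (by decide +kernel) ?_
    norm_num at k ⊢
    linarith
  · obtain rfl : m = 48 := by omega
    have k := hL 9 ([6, 5, 5, 5, 4, 4, 4, 4, 3, 3, 3, 3, 2, 2, 2, 2].map fun c : ℕ => (2 : ℝ) ^ c) (by norm_num)
      (dmc_spec 48) (fun y hy => by
        obtain ⟨c, -, rfl⟩ := List.mem_map.1 hy
        exact one_le_pow₀ (by norm_num))
    simp only [List.map, LN, lg] at k
    refine fin8 (E := 560) (by decide +kernel) ?_
    norm_num at k ⊢
    linarith
  · exact (Nat.mul_le_mul_left _ ((hS _ _ (dmc_spec m) (muu_spec n t)).trans (Sy_le (by omega) _ _))).trans k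

end Cfsg.Agent.H6.Ch
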