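import Cfsg.Agent.H3.Ch.Big

/-! Orders of primitive groups: the transitivity degree is small. -/

set_option autoImplicit false

namespace Cfsg.Agent.H6.Ch

open Cfsg.Agent.H3.Ch

theorem tb5 {n t : ℕ} (h : 541 ≤ n) (hM : ∀ r < t, ¬ Mil n r) : (n ^ (t - 1)) ^ 5 ≤ 2 ^ n := by
  obtain ⟨r, c, m, h4, hc⟩ : Gd n := by
    by_cases h2 : n < 131072
    · exact gd_mid h h2
    · exact gd_big (by omega)
  have tr : t ≤ r := by
    by_contra! k
    exact hM r k m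
  have c37 : 37 ≤ c := by
    by_contra! k
    have h1 : 2 ^ c ≤ 2 ^ 36 := Nat.pow_le_pow_right (by norm_num) (by omega)
    have h2 : 541 ^ 4 ≤ n ^ 4 := Nat.pow_le_pow_left h 4
    omega
  obtain ⟨d, rfl⟩ : ∃ d, c = d + 37 := ⟨c - 37, by omega⟩
  have e : d + 37 - 6 = d + 31 := by omega
  rw [e] at hc
  have k1 : 5 * ((d + 37) * (r - 1)) ≤ 4 * n := by
    have : (r - 1) * (d + 31) ≤ 2 * (n / 3) := by omega
    have h3 : 3 * (n / 3) ≤ n := by omega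
    nlinarith [Nat.zero_le ((r - 1) * d), Nat.zero_le (r - 1)]
  have k2 : ((n ^ (t - 1)) ^ 5) ^ 4 ≤ (2 ^ n) ^ 4 :=
    calc ((n ^ (t - 1)) ^ 5) ^ 4 ≤ ((n ^ (r - 1)) ^ 5) ^ 4 :=
          Nat.pow_le_pow_left (Nat.pow_le_pow_left (Nat.pow_le_pow_right (by omega) (by omega)) _) _
      _ = ((n ^ 4) ^ (r - 1)) ^ 5 := by ring
      _ ≤ ((2 ^ (d + 37)) ^ (r - 1)) ^ 5 := Nat.pow_le_pow_left (Nat.pow_le_pow_left h4.le _) _
      _ = 2 ^ (5 * ((d + 37) * (r - 1))) := by rw [← pow_mul, ← pow_mul, mul_comm 5, mul_assoc]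
      _ ≤ 2 ^ (4 * n) := Nat.pow_le_pow_right (by norm_num) k1
      _ = (2 ^ n) ^ 4 := by ring
  exact (Nat.pow_le_pow_iff_left (by norm_num)).1 k2

/-- for `n ≥ 541` it is enough to bound `log y` by `9 / 5 * n * log 2` -/
theorem tb_fin {n t j y : ℕ} (h : 541 ≤ n) (hM : ∀ r < t, ¬ Mil n r) (hj : j ≤ t - 1)
    (hy : Real.log y ≤ 9 / 5 * n * Real.log 2) : n.descFactorial j * y ≤ 4 ^ n := by
  rcases Nat.eq_zero_or_pos y with rfl | y0
  · simp
  have h1 : (n.descFactorial j) ^ 5 ≤ 2 ^ n :=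
    le_trans (Nat.pow_le_pow_left ((Nat.descFactorial_le_pow n j).trans
      (Nat.pow_le_pow_right (by omega) hj)) 5) (tb5 h hM)
  have h2 : y ^ 5 ≤ 2 ^ (9 * n) := by
    have : (y : ℝ) ^ 5 ≤ 2 ^ (9 * n) := by
      rw [← Real.log_le_log_iff (by positivity) (by positivity), Real.log_pow, Real.log_pow]
      push_cast
      linarith
    exact_mod_cast this
  have h3 : (n.descFactorial j * y) ^ 5 ≤ (4 ^ n) ^ 5 :=
    calc (n.descFactorial j * y) ^ 5 = (n.descFactorial j) ^ 5 * y ^ 5 := mul_pow _ _ _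
      _ ≤ 2 ^ n * 2 ^ (9 * n) := Nat.mul_le_mul h1 h2
      _ = (4 ^ n) ^ 5 := by
        rw [← pow_add, ← pow_mul, show (4 : ℕ) = 2 ^ 2 by norm_num, ← pow_mul]
        congr 1
        ring
  exact (Nat.pow_le_pow_iff_left (by norm_num)).1 h3

end Cfsg.Agent.H6.Ch
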