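import Cfsg.Agent.H6.Ch.TB
import Cfsg.Agent.H2.NU0

/-! Orders of primitive groups: the simply primitive case for large degree. -/

set_option autoImplicit false

namespace Cfsg.Agent.H6.Ch

open Cfsg.Agent.H3.Ch

theorem log_sq_le {z : ℝ} (h : 1 ≤ z) : Real.log z ^ 2 ≤ 0.5414 * z := by
  have z0 : 0 < z := by linarith
  have s0 : 0 < Real.sqrt z := Real.sqrt_pos.2 z0
  have e0 := Real.exp_pos 1
  have e1 := Real.exp_one_gt_d9
  have h1 := Real.log_le_sub_one_of_pos (div_pos s0 e0)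
  rw [Real.log_div s0.ne' e0.ne', Real.log_exp, Real.log_sqrt z0.le] at h1
  have h2 : Real.sqrt z / Real.exp 1 ≤ Real.sqrt z / 2.7182818283 :=
    div_le_div_of_nonneg_left s0.le (by norm_num) e1.le
  have h3 : Real.log z ≤ 2 * (Real.sqrt z / 2.7182818283) := by linarith
  have h4 := Real.log_nonneg h
  have h5 := Real.sq_sqrt z0.le
  calc Real.log z ^ 2 ≤ (2 * (Real.sqrt z / 2.7182818283)) ^ 2 := pow_le_pow_left₀ h4 h3 2
    _ = 4 / 2.7182818283 ^ 2 * z := by rw [mul_pow, div_pow, h5]; ring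
    _ ≤ 0.5414 * z := mul_le_mul_of_nonneg_right (by norm_num) z0.le

theorem psi_le {y : ℝ} (h : 1 ≤ y) : H9.Ch.psi y ≤ Real.log y ^ 2 / 2 + 2 := by
  have : 0 ≤ 1 / Real.sqrt y := by positivity
  unfold H9.Ch.psi
  linarith

theorem psi_le_sqrt {y z : ℝ} (h : 1 ≤ y) (hz : 1 ≤ z) (hy : y ≤ z ^ 2) : H9.Ch.psi y ≤ 1.0828 * z + 2 := by
  have h1 := psi_le h
  have h2 : Real.log y ≤ 2 * Real.log z := by
    have := Real.log_le_log (by linarith) hy
    rw [Real.log_pow] at this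
    exact_mod_cast this
  have h3 := pow_le_pow_left₀ (Real.log_nonneg h) h2 2
  have h4 := log_sq_le hz
  nlinarith

theorem t_small {n t : ℕ} (h : 541 ≤ n) (hM : ∀ r < t, ¬ Mil n r) : 45 * (t - 1) ≤ n := by
  have h1 := tb5 h hM
  have h2 : ((2 ^ 9) ^ (t - 1)) ^ 5 ≤ (n ^ (t - 1)) ^ 5 :=
    Nat.pow_le_pow_left (Nat.pow_le_pow_left (by omega) _) _
  have h3 := h2.trans h1
  rw [← pow_mul, ← pow_mul, Nat.pow_le_pow_iff_right (by norm_num)] at h3
  omega

theorem numU_big (n t m x : ℕ) (h : 541 ≤ n) (hM : ∀ r < t, ¬ Mil n r) (hm : m + t = n + 1)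
    (hp : ∀ d, H2.NU.Dm m d → (d : ℝ) * Real.log x ≤ m * H9.Ch.psi m) :
    n.descFactorial (t - 1) * x ≤ 4 ^ n := by
  have ts := t_small h hM
  refine tb_fin h hM le_rfl ?_
  have m1 : 529 ≤ m := by omega
  have m2 : m ≤ n + 1 := by omega
  obtain ⟨d, hd⟩ : ∃ d, d = Nat.sqrt m := ⟨_, rfl⟩
  have d1 : d * d ≤ m := hd ▸ Nat.sqrt_le m
  have d2 : m < (d + 1) * (d + 1) := hd ▸ Nat.lt_succ_sqrt m
  have d3 : 23 ≤ d := by nlinarith
  have D : H2.NU.Dm m d := by
    intro k hk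
    by_contra! c
    rcases hk with hk | hk
    · have : k * (3 * k - 2) ≤ k * (3 * k) := Nat.mul_le_mul_left _ (by omega)
      have : 4 * (m - 1) + 4 = 4 * m := by omega
      nlinarith
    · nlinarith
  have h1 := hp d D
  have h2 : H9.Ch.psi m ≤ 1.0828 * ((d : ℝ) + 1) + 2 :=
    psi_le_sqrt (by exact_mod_cast (by omega : 1 ≤ m)) (by have : (0 : ℝ) ≤ d := by positivity
                                                           linarith)
      (by rw [sq]; exact_mod_cast d2.le)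
  have d4 : (23 : ℝ) ≤ d := by exact_mod_cast d3
  have m3 : (m : ℝ) ≤ n + 1 := by exact_mod_cast m2
  have n3 : (541 : ℝ) ≤ n := by exact_mod_cast h
  have l2 := Real.log_two_gt_d9
  have h3 : H9.Ch.psi m ≤ 1.22 * d := by linarith
  have h4 : (m : ℝ) * H9.Ch.psi m ≤ (n + 1) * (1.22 * d) := by
    refine le_trans (mul_le_mul_of_nonneg_left h3 (by positivity)) ?_
    exact mul_le_mul_of_nonneg_right m3 (by positivity)
  have h5 : (d : ℝ) * Real.log x ≤ d * ((n + 1) * 1.22) := by linarith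
  have h6 := le_of_mul_le_mul_left h5 (by linarith)
  nlinarith

end Cfsg.Agent.H6.Ch
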